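import Mathlib
import Cfsg.Agent.Lib.Refl3.O8

/-!
Seven elements of order three in the table of type M(23) and the numbers of transpositions they centralise (helper94).
-/

set_option autoImplicit false
set_option maxRecDepth 100000

namespace H94.O8

open H54 H56 H7 H94.T24

/-- the three classes of 1080 points -/
noncomputable def cl (m : ℕ) : ℕ :=
  force (rc m) fun e => force (Nat.land e 3) fun c =>
    sel (Nat.beq c 0) 0 (sel (Nat.beq c 1) (Nat.succ (Nat.land (Nat.shiftRight e 6) 1)) 3)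

theorem par_ok : allLt (fun m => force (cl m) fun c => band (bimp (Nat.beq c 0) (Nat.beq (Nat.land (rc m) 3) 0))
    (bimp (bor (Nat.beq c 1) (Nat.beq c 2)) (band (Nat.beq (Nat.land (rc m) 3) 1)
      (allLt (fun k => Nat.beq (Nat.add (cl (tab23 (Nat.succ k) m)) c) 3 && Nat.blt 0 (cl (tab23 (Nat.succ k) m))) 9))))
    31671 = true := by decide +kernel

/-- the seven elements -/
noncomputable def wb (i : ℕ) : List ℕ := List.getD
  [[3, 4], [1, 8, 2, 9], [8, 1, 2, 5, 4, 3, 8, 1, 2, 5, 4, 3, 8, 1, 2, 5, 4, 3, 8, 1, 2, 5, 4, 3], [2, 9, 1, 6, 5, 8], [5, 4, 8, 9], [4, 2, 9, 8, 5, 3, 4, 2, 9, 8, 5, 3, 4, 2, 9, 8, 5, 3, 4, 2, 9, 8, 5, 3], [2, 9, 4, 1, 8, 3, 2, 9, 4, 1, 8, 3, 2, 9, 4, 1, 8, 3, 2, 9, 4, 1, 8, 3]] i []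

/-- words that conjugate them into the centraliser of b -/
noncomputable def wu (i : ℕ) : List ℕ := List.getD
  [[], [2, 1, 3, 2, 4, 3], [2, 1, 3, 2, 4, 3, 5, 4, 6, 5, 7, 6], [2, 1, 3, 2, 4, 3, 5, 6, 7], [], [2, 1, 3, 2, 4, 3, 5, 4, 6, 5, 7, 6], [2, 1, 3, 2, 4, 3, 5, 4, 6, 5]] i []

/-- numbers of fixed points -/
def tri (i k : ℕ) : ℕ := List.getD (List.getD [[108, 0, 0], [135, 0, 0], [27, 0, 0], [9, 9, 9], [18, 18, 18], [27, 27, 27], [108, 108, 108]] i []) k 0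

theorem wb_ok : ∀ i < 7, inW 1022 (wb i) = true ∧ (wb i).length % 2 = 0 ∧ inW 1022 (wu i) = true ∧
    fixW 10 tab23 idx23 (wb i ++ (wb i ++ wb i)) = true ∧ evW tab23 (wb i) (idx23 3) ≠ idx23 3 ∧
    evW tab23 (wu i ++ (wb i ++ (wu i).reverse)) (idx23 1) = idx23 1 := by decide +kernel

theorem tri_ok : ∀ i < 7, ∀ k < 3,
    cntLt (fun m => band (Nat.beq (cl m) k) (Nat.beq (evW tab23 (wb i) m) m)) 31671 = tri i k := by decide +kernel

end H94.O8
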