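import Mathlib
import Cfsg.Agent.Lib.Refl3.Basic
import Cfsg.Agent.Lib.Forms.Witt
import Cfsg.Agent.Lib.Orth12.Simple

/-!
Elements of order three of the orthogonal groups of dimension seven and eight over the field with three elements:
upper bounds for the numbers of classes (helper94).
-/

set_option autoImplicit false

namespace H94.U3

open H12 QuadraticMap Module Matrix

variable {V : Type*} [AddCommGroup V] [Module (ZMod 3) V] {Q : QuadraticForm (ZMod 3) V}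
variable {ι κ : Type} [Fintype ι] [DecidableEq ι] [Fintype κ] [DecidableEq κ]

/-- a family with Gram matrix `A` on which `x` acts by the matrix `X` -/
structure Blk (x : O Q) (A X : Matrix ι ι (ZMod 3)) (b : ι → V) : Prop where
  det : A.det ≠ 0
  gram : ∀ i j, polar Q (b i) (b j) = A i j
  act : ∀ j, x.1 (b j) = ∑ i, X i j • b i

/-- the orthogonal of a family -/
def Perp (Q : QuadraticForm (ZMod 3) V) (b : ι → V) : Submodule (ZMod 3) V := ⨅ i, LinearMap.ker (polarBilin Q (b i))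

omit [Fintype ι] [DecidableEq ι] in
theorem mem_Perp {b : ι → V} {u : V} : u ∈ Perp Q b ↔ ∀ i, polar Q (b i) u = 0 := by
  simp [Perp, Submodule.mem_iInf]

omit [DecidableEq ι] in
theorem polar_sum (g : ι → ZMod 3) (b : ι → V) (u : V) : polar Q (∑ i, g i • b i) u = ∑ i, g i * polar Q (b i) u := by
  simp only [B_sum_left, B_smul_left]

theorem cube {x : O Q} (hx : x ^ 3 = 1) (v : V) : x.1 (x.1 (x.1 v)) = v := by
  rw [← O.mul_apply, ← O.mul_apply, ← pow_three', hx, O.one_apply]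

/-- a subspace that is invariant and non-degenerate -/
structure Good' (x : O Q) (U : Submodule (ZMod 3) V) : Prop where
  inv : ∀ u ∈ U, x.1 u ∈ U
  nd : ∀ w, ∃ w' ∈ U, ∀ u ∈ U, polar Q u w' = polar Q u w

namespace Blk

variable {x : O Q} {A X : Matrix ι ι (ZMod 3)} {b : ι → V} (h : Blk x A X b)
include h

theorem polar_sum' (g : ι → ZMod 3) (j : ι) : polar Q (b j) (∑ i, g i • b i) = (A *ᵥ g) j := by
  simp only [B_sum_right, B_smul_right, h.gram, mulVec, dotProduct, mul_comm]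

theorem li : LinearIndependent (ZMod 3) b := Fintype.linearIndependent_iff.2 fun g hg =>
  congrFun (eq_zero_of_mulVec_eq_zero h.det (funext fun j => by rw [← h.polar_sum', hg, polar_zero_right]; rfl))

theorem card_le [FiniteDimensional (ZMod 3) V] : Fintype.card ι ≤ finrank (ZMod 3) V := h.li.fintype_card_le_finrank

theorem dec (w : V) : ∃ g : ι → ZMod 3, w - ∑ i, g i • b i ∈ Perp Q b :=
  ⟨A⁻¹ *ᵥ fun j => polar Q (b j) w, mem_Perp.2 fun j => by
    rw [polar_sub_right, h.polar_sum', mulVec_mulVec, mul_nonsing_inv _ (Ne.isUnit h.det), one_mulVec, sub_self]⟩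

theorem good (hx : x ^ 3 = 1) : Good' x (Perp Q b) := by
  refine ⟨fun u hu => mem_Perp.2 fun i => ?_, fun w => ?_⟩
  · rw [← cube hx (b i), O.map_B, h.act, map_sum]
    simp only [map_smul, h.act, polar_sum, mem_Perp.1 hu, mul_zero, Finset.sum_const_zero]
  · obtain ⟨g, hg⟩ := h.dec w
    exact ⟨_, hg, fun u hu => by
      rw [polar_sub_right, polar_comm Q u (∑ _, _), polar_sum]; simp [mem_Perp.1 hu]⟩

theorem sum {A' X' : Matrix κ κ (ZMod 3)} {b' : κ → V} (h' : Blk x A' X' b') (hb : ∀ j, b' j ∈ Perp Q b) :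
    Blk x (fromBlocks A 0 0 A') (fromBlocks X 0 0 X') (Sum.elim b b') := by
  refine ⟨by rw [det_fromBlocks_zero₁₂]; exact mul_ne_zero h.det h'.det, ?_, ?_⟩
  · rintro (i | i) (j | j)
    exacts [h.gram i j, mem_Perp.1 (hb j) i, (polar_comm _ _ _).trans (mem_Perp.1 (hb i) j), h'.gram i j]
  · rintro (j | j) <;> simp [h.act, h'.act]

theorem finrank_perp [FiniteDimensional (ZMod 3) V] :
    finrank (ZMod 3) V ≤ Fintype.card ι + finrank (ZMod 3) (Perp Q b) := by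
  have e : Submodule.span (ZMod 3) (Set.range b) ⊔ Perp Q b = ⊤ := eq_top_iff.2 fun w _ => by
    obtain ⟨g, hg⟩ := h.dec w
    rw [← add_sub_cancel (∑ i, g i • b i) w]
    exact Submodule.add_mem_sup (Submodule.sum_mem _ fun i _ =>
      Submodule.smul_mem _ _ (Submodule.subset_span ⟨i, rfl⟩)) hg
  rw [← finrank_top, ← e, ← finrank_span_eq_card h.li]
  exact Submodule.finrank_add_le_finrank_add_finrank _ _

end Blk

/-- `x` is described by the matrices `A`, `X` -/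
def Ty (A X : Matrix ι ι (ZMod 3)) (x : O Q) : Prop := x ^ 3 = 1 ∧ ∃ b, Blk x A X b ∧ ∀ u ∈ Perp Q b, x.1 u = u

theorem Ty.conj [FiniteDimensional (ZMod 3) V] (hQ : Nondeg Q) {A X : Matrix ι ι (ZMod 3)} {x y : O Q} (h : Ty A X x)
    (h' : Ty A X y) : ∃ g, g * x * g⁻¹ = y := by
  obtain ⟨-, b, h, hu⟩ := h
  obtain ⟨-, b', h', hu'⟩ := h'
  obtain ⟨g, h1, h2⟩ := H28.witt_quad_family Q (nondeg_iff.1 hQ).1 b b' h.li h'.li
    (fun i j _ => by rw [h.gram, h'.gram])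
    fun i => mul_left_cancel₀ z3_two (by rw [← B_self, ← B_self, h.gram, h'.gram])
  refine ⟨⟨g, h1⟩, mul_inv_eq_iff_eq_mul.2 (O.ext fun w => ?_)⟩
  obtain ⟨c, hc⟩ := h.dec w
  have m : g (w - ∑ i, c i • b i) ∈ Perp Q b' := mem_Perp.2 fun i => by
    rw [← h2]; exact (O.map_B ⟨g, h1⟩ _ _).trans (mem_Perp.1 hc i)
  rw [← add_sub_cancel (∑ i, c i • b i) w]
  show g (x.1 _) = y.1 (g _)
  rw [map_add, map_add, map_add, map_add, hu _ hc, hu' _ m]
  simp only [map_sum, map_smul, h.act, h'.act, h2]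

/-- a vector orthogonal to its images -/
structure JV (x : O Q) (c : ZMod 3) (v : V) : Prop where
  hc : c ≠ 0
  hq : Q v = c
  hb : polar Q v (x.1 v) = 0

/-- a pair of vectors spanning a block of dimension four -/
structure WV (x : O Q) (u w : V) : Prop where
  su : x.1 (x.1 u) = -u - x.1 u
  sw : x.1 (x.1 w) = -w - x.1 w
  qu : Q u = 0
  qw : Q w = 0
  b1 : polar Q u w = 0
  b2 : polar Q (x.1 u) w = 1

/-- Gram matrix of a block of dimension three -/
def AJ (c : ZMod 3) : Matrix (Fin 3) (Fin 3) (ZMod 3) := !![2 * c, 0, 0; 0, 2 * c, 0; 0, 0, 2 * c]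
/-- action on a block of dimension three -/
def XJ : Matrix (Fin 3) (Fin 3) (ZMod 3) := !![0, 0, 1; 1, 0, 0; 0, 1, 0]
/-- Gram matrix of a block of dimension four -/
def AW : Matrix (Fin 4) (Fin 4) (ZMod 3) := !![0, 0, 0, -1; 0, 0, 1, 0; 0, 1, 0, 0; -1, 0, 0, 0]
/-- action on a block of dimension four -/
def XW : Matrix (Fin 4) (Fin 4) (ZMod 3) := !![0, -1, 0, 0; 1, -1, 0, 0; 0, 0, 0, -1; 0, 0, 1, -1]

theorem det_AJ : ∀ c, (AJ c).det = -c := by decide +kernel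

theorem det_AW : AW.det = 1 := by decide +kernel

variable {x : O Q}

theorem JV.hb' (hx : x ^ 3 = 1) {c : ZMod 3} {v : V} (h : JV x c v) : polar Q v (x.1 (x.1 v)) = 0 := by
  rw [← O.map_B x, cube hx, polar_comm, h.hb]

theorem JV.blk (hx : x ^ 3 = 1) {c : ZMod 3} {v : V} (h : JV x c v) : Blk x (AJ c) XJ ![v, x.1 v, x.1 (x.1 v)] := by
  have h1 := h.hb
  have h2 := h.hb' hx
  have h3 := (polar_comm _ _ _).trans h1
  have h4 := (polar_comm _ _ _).trans h2
  refine ⟨by rw [det_AJ]; exact neg_ne_zero.2 h.hc, fun i j => ?_, fun j => ?_⟩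
  · fin_cases i <;> fin_cases j <;> simp [AJ, O.map_B, O.map_Q, -polar_self, B_self, h.hq, h1, h2, h3, h4]
  · fin_cases j <;> simp [XJ, Fin.sum_univ_succ, cube hx]

theorem polar_self_apply (hx : x ^ 3 = 1) {u : V} (su : x.1 (x.1 u) = -u - x.1 u) : polar Q u (x.1 u) = 2 * Q u := by
  have := O.map_B x u (x.1 (x.1 u))
  rw [cube hx, su, polar_sub_right, polar_neg_right, B_self, polar_comm] at this
  generalize polar Q u (x.1 u) = a, Q u = b at *
  revert a b; decide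

theorem polar_apply (hx : x ^ 3 = 1) {u : V} (su : x.1 (x.1 u) = -u - x.1 u) (w : V) :
    polar Q u (x.1 w) = -polar Q u w - polar Q (x.1 u) w := by
  rw [← cube hx u, O.map_B, cube hx, su, polar_sub_left, polar_neg_left]

theorem WV.blk (hx : x ^ 3 = 1) {u w : V} (h : WV x u w) : Blk x AW XW ![u, x.1 u, w, x.1 w] := by
  have h1 := polar_self_apply hx h.su
  have h2 := polar_self_apply hx h.sw
  have h3 := polar_apply hx h.su w
  rw [h.qu, mul_zero] at h1
  rw [h.qw, mul_zero] at h2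
  rw [h.b1, h.b2, neg_zero, zero_sub] at h3
  have h4 := h.b1
  have h5 := h.b2
  have k1 := (polar_comm _ _ _).trans h1
  have k2 := (polar_comm _ _ _).trans h2
  have k3 := (polar_comm _ _ _).trans h3
  have k4 := (polar_comm _ _ _).trans h4
  have k5 := (polar_comm _ _ _).trans h5
  refine ⟨by rw [det_AW]; exact one_ne_zero, fun i j => ?_, fun j => ?_⟩
  · fin_cases i <;> fin_cases j <;>
      simp [AW, O.map_B, O.map_Q, -polar_self, B_self, h.qu, h.qw, h1, h2, h3, h4, h5, k1, k2, k3, k4, k5]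
  · fin_cases j <;> simp [XW, Fin.sum_univ_succ, h.su, h.sw, sub_eq_add_neg]

theorem exists_JV (hx : x ^ 3 = 1) {U : Submodule (ZMod 3) V} (hU : Good' x U) {v : V} (hv : v ∈ U)
    (h : polar Q v (v + x.1 v + x.1 (x.1 v)) ≠ 0) : ∃ c, ∃ v ∈ U, JV x c v := by
  have e1 : polar Q v (x.1 (x.1 v)) = polar Q v (x.1 v) := by rw [← O.map_B x, cube hx, polar_comm]
  have m : v + x.1 v + x.1 (x.1 v) ∈ U := add_mem (add_mem hv (hU.inv _ hv)) (hU.inv _ (hU.inv _ hv))
  have f : x.1 (v + x.1 v + x.1 (x.1 v)) = v + x.1 v + x.1 (x.1 v) := by rw [map_add, map_add, cube hx]; abel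
  have e2 : polar Q v (v + x.1 v + x.1 (x.1 v)) = 2 * Q v + 2 * polar Q v (x.1 v) := by
    rw [polar_add_right, polar_add_right, e1, B_self]; ring
  generalize hs : v + x.1 v + x.1 (x.1 v) = s at *
  have e3 : polar Q (x.1 v) s = polar Q v s := by rw [← f, O.map_B, f]
  have e4 : 2 * Q s = 0 := by
    have e5 : polar Q (x.1 (x.1 v)) s = polar Q v s := by rw [← f, O.map_B, f, e3]
    rw [← B_self]
    nth_rewrite 1 [← hs]
    rw [polar_add_left, polar_add_left, e3, e5]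
    generalize polar Q v s = a
    revert a; decide
  refine ⟨_, v + (polar Q v (x.1 v) * polar Q v s) • s, add_mem hv (U.smul_mem _ m), ?_, rfl, ?_⟩
  · rw [Q_add, Q_smul, B_smul_right]
    generalize polar Q v s = a, polar Q v (x.1 v) = b, Q v = c, Q s = d at *
    clear hs f m e1 e3
    revert a b c d; decide
  · rw [map_add, map_smul, f, polar_add_left, polar_add_right, polar_add_right, B_smul_left, B_smul_left, B_smul_right,
      B_smul_right, polar_comm Q s, e3, B_self, e4]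
    generalize polar Q v s = a, polar Q v (x.1 v) = b at *
    clear hs f m e1 e3 e2
    revert a b; decide

theorem exists_WV (hx : x ^ 3 = 1) {U : Submodule (ZMod 3) V} (hU : Good' x U)
    (hS : ∀ u ∈ U, x.1 (x.1 u) = -u - x.1 u) {u w : V} (hu : u ∈ U) (hw : w ∈ U) (h : polar Q (x.1 u - u) w = 1) :
    ∃ u ∈ U, ∃ w ∈ U, WV x u w := by
  have fx : ∀ u ∈ U, x.1 (x.1 u - u) = x.1 u - u := fun u hu => by
    rw [map_sub, hS u hu, sub_sub, add_self_z3]; abel
  have mn := sub_mem (hU.inv u hu) hu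
  have mm := sub_mem (hU.inv w hw) hw
  have fn := fx u hu
  have fm := fx w hw
  have z : ∀ {n : V}, x.1 n = n → ∀ v, polar Q (x.1 v - v) n = 0 := fun {n} f v => by
    rw [polar_sub_left, ← f, O.map_B, f, sub_self]
  have n1 := z fn u
  have n2 := z fn w
  have n3 := z fm u
  have n4 := z fm w
  have n5 : polar Q u (x.1 u - u) = 0 := by rw [polar_sub_right, polar_self_apply hx (hS u hu), B_self, sub_self]
  have n6 : polar Q w (x.1 w - w) = 0 := by rw [polar_sub_right, polar_self_apply hx (hS w hw), B_self, sub_self]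
  have n7 : polar Q u (x.1 w - w) = -1 := by
    rw [polar_sub_left] at h
    rw [polar_sub_right, polar_apply hx (hS u hu)]
    generalize polar Q u w = a, polar Q (x.1 u) w = b at *
    clear n1 n2 n3 n4 n5 n6
    revert a b; decide
  have xu : x.1 u = u + (x.1 u - u) := by abel
  generalize x.1 u - u = n at *
  generalize x.1 w - w = m at *
  rw [B_self, mul_eq_zero, or_iff_right z3_two] at n1 n4
  have m1 := add_mem hu (U.smul_mem (Q u) mm)
  have m2 := add_mem (add_mem hw (U.smul_mem (-Q w) mn)) (U.smul_mem (polar Q u w) mm)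
  refine ⟨_, m1, _, m2, hS _ m1, hS _ m2, ?_, ?_, ?_, ?_⟩
  · rw [Q_add, Q_smul, B_smul_right, n4, n7]; ring
  · rw [Q_add, Q_add, Q_smul, Q_smul, polar_add_left, B_smul_right, B_smul_right, B_smul_left, B_smul_right, n1, n4,
      n6, n3, polar_comm Q w, h]; ring
  · simp only [polar_add_left, polar_add_right, B_smul_left, B_smul_right, B_self, polar_comm Q m w, n2, n4, n5, n6, n7]
    ring
  · rw [map_add, map_smul, fm, xu]
    simp only [polar_add_left, polar_add_right, B_smul_left, B_smul_right, B_self, polar_comm Q m w, n1, n2, n3, n4,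
      n5, n6, n7, h]
    ring

theorem step (hQ : Nondeg Q) (hx : x ^ 3 = 1) {U : Submodule (ZMod 3) V} (hU : Good' x U) :
    (∃ c, ∃ v ∈ U, JV x c v) ∨ (∃ u ∈ U, ∃ w ∈ U, WV x u w) ∨ ∀ u ∈ U, x.1 u = u := by
  refine or_iff_not_imp_left.2 fun hJ => or_iff_not_imp_right.2 fun h1 => ?_
  have z : ∀ v ∈ U, polar Q v (v + x.1 v + x.1 (x.1 v)) = 0 := fun v hv => by_contra fun c => hJ (exists_JV hx hU hv c)
  have nd : ∀ s ∈ U, (∀ w ∈ U, polar Q s w = 0) → s = 0 := fun s hs h => hQ s fun w => by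
    obtain ⟨w', h1, h2⟩ := hU.nd w
    rw [← h2 s hs, h w' h1]
  have hS : ∀ u ∈ U, x.1 (x.1 u) = -u - x.1 u := fun u hu => by
    have := nd _ (add_mem (add_mem hu (hU.inv _ hu)) (hU.inv _ (hU.inv _ hu))) fun w hw => by
      have e := z _ (add_mem hu hw)
      have e1 := z u hu
      have e2 := z w hw
      have a1 : polar Q u (x.1 w) = polar Q w (x.1 (x.1 u)) := by rw [← cube hx u, O.map_B, cube hx, polar_comm]
      have a2 : polar Q u (x.1 (x.1 w)) = polar Q w (x.1 u) := by rw [← O.map_B x, cube hx, polar_comm]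
      simp only [map_add, polar_add_left, polar_add_right, a1, a2, polar_comm Q u w] at e e1 e2
      rw [polar_comm, polar_add_right, polar_add_right]
      exact mul_left_cancel₀ z3_two (by linear_combination e - e1 - e2)
    rw [← sub_eq_zero, ← this]; abel
  push Not at h1
  obtain ⟨u, hu, h1⟩ := h1
  have := mt (nd _ (sub_mem (hU.inv u hu) hu)) (sub_ne_zero.2 h1)
  push Not at this
  obtain ⟨w, hw, h2⟩ := this
  exact exists_WV hx hU hS hu (U.smul_mem (polar Q (x.1 u - u) w)⁻¹ hw) (by rw [B_smul_right, inv_mul_cancel₀ h2])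

theorem JV.mem {U : Submodule (ZMod 3) V} (hU : Good' x U) {v : V} (hv : v ∈ U) :
    ∀ j, ![v, x.1 v, x.1 (x.1 v)] j ∈ U := by
  intro j; fin_cases j
  exacts [hv, hU.inv _ hv, hU.inv _ (hU.inv _ hv)]

theorem WV.mem {U : Submodule (ZMod 3) V} (hU : Good' x U) {u w : V} (hu : u ∈ U) (hw : w ∈ U) :
    ∀ j, ![u, x.1 u, w, x.1 w] j ∈ U := by
  intro j; fin_cases j
  exacts [hu, hU.inv _ hu, hw, hU.inv _ hw]

variable [FiniteDimensional (ZMod 3) V]

theorem Blk.ty (hQ : Nondeg Q) (hx : x ^ 3 = 1) {A X : Matrix ι ι (ZMod 3)} {b : ι → V} (h : Blk x A X b)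
    (hn : finrank (ZMod 3) V < Fintype.card ι + 3) : Ty A X x := by
  refine ⟨hx, b, h, ?_⟩
  rcases step hQ hx (h.good hx) with ⟨c, v, hv, k⟩ | ⟨u, hu, w, hw, k⟩ | k
  · have := (h.sum (k.blk hx) (JV.mem (h.good hx) hv)).card_le
    simp at this; omega
  · have := (h.sum (k.blk hx) (WV.mem (h.good hx) hu hw)).card_le
    simp at this; omega
  · exact k

omit [FiniteDimensional (ZMod 3) V] in
theorem JV.add {c d : ZMod 3} {v w : V} (h : JV x c v) (h' : JV x d w) (hcd : c + d ≠ 0) (h1 : polar Q v w = 0)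
    (h2 : polar Q v (x.1 w) = 0) (h3 : polar Q (x.1 v) w = 0) : JV x (c + d) (v + w) :=
  ⟨hcd, by rw [Q_add, h.hq, h'.hq, h1, add_zero], by
    rw [map_add, polar_add_left, polar_add_right, polar_add_right, h.hb, h'.hb, h2, polar_comm, h3]; simp⟩

/-- the types of the elements of order three in dimension at most eight -/
theorem cases (hQ : Nondeg Q) (hn : finrank (ZMod 3) V ≤ 8) (hx : x ^ 3 = 1) (h1 : x ≠ 1) :
    Ty AW XW x ∨ Ty (AJ 1) XJ x ∨ Ty (AJ (-1)) XJ x ∨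
      Ty (fromBlocks (AJ 1) 0 0 (AJ 1)) (fromBlocks XJ 0 0 XJ) x ∨
      Ty (fromBlocks (AJ 1) 0 0 (AJ (-1))) (fromBlocks XJ 0 0 XJ) x ∨
      (Ty (fromBlocks (AJ 1) 0 0 AW) (fromBlocks XJ 0 0 XW) x ∨
        Ty (fromBlocks (AJ (-1)) 0 0 AW) (fromBlocks XJ 0 0 XW) x) ∨
      Ty (fromBlocks AW 0 0 AW) (fromBlocks XW 0 0 XW) x := by
  by_cases hJ : ∃ c v, JV x c v
  · obtain ⟨c, v, hv, p⟩ : ∃ c v, JV x c v ∧ (c = 1 ∨ ¬ ∃ v, JV x 1 v) := by
      by_cases c : ∃ v, JV x 1 v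
      · exact let ⟨v, hv⟩ := c; ⟨1, v, hv, Or.inl rfl⟩
      · exact let ⟨d, v, hv⟩ := hJ; ⟨d, v, hv, Or.inr c⟩
    have b := hv.blk hx
    have hc := (z3_cases c).resolve_left hv.hc
    rcases step hQ hx (b.good hx) with ⟨d, w, hw, k⟩ | ⟨u, hu, w, hw, k⟩ | k
    · have t := (b.sum (k.blk hx) (JV.mem (b.good hx) hw)).ty hQ hx (by simp; omega)
      have hd := (z3_cases d).resolve_left k.hc
      obtain rfl : c = 1 := p.elim id fun q => hc.resolve_right (by
        rintro rfl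
        rcases hd with rfl | rfl
        · exact q ⟨w, k⟩
        · exact q ⟨_, hv.add k (by decide) (mem_Perp.1 hw 0) (mem_Perp.1 ((b.good hx).inv _ hw) 0) (mem_Perp.1 hw 1)⟩)
      rcases hd with rfl | rfl <;> simp only [t, true_or, or_true]
    · have t := (b.sum (k.blk hx) (WV.mem (b.good hx) hu hw)).ty hQ hx (by simp; omega)
      rcases hc with rfl | rfl <;> simp only [t, true_or, or_true]
    · have t : Ty (AJ c) XJ x := ⟨hx, _, b, k⟩
      rcases hc with rfl | rfl <;> simp only [t, true_or, or_true]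
  · rcases step hQ hx (U := ⊤) ⟨fun _ _ => trivial, fun w => ⟨w, trivial, fun _ _ => rfl⟩⟩ with
      ⟨c, v, -, k⟩ | ⟨u, -, w, -, k⟩ | k
    · exact absurd ⟨c, v, k⟩ hJ
    · have b := k.blk hx
      rcases step hQ hx (b.good hx) with ⟨d, w, -, k⟩ | ⟨u, hu, w, hw, k⟩ | k
      · exact absurd ⟨d, w, k⟩ hJ
      · have t := (b.sum (k.blk hx) (WV.mem (b.good hx) hu hw)).ty hQ hx (by simp; omega)
        simp only [t, or_true]
      · exact Or.inl ⟨hx, _, b, k⟩
    · exact absurd (O.ext fun v => k v trivial) h1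

/-- the elements with the property `P` fall into at most `k` classes under `Ω` -/
def Bnd (P : O Q → Prop) (k : ℕ) : Prop :=
  ∃ f : O Q → ℕ, (∀ x, P x → f x < k) ∧ ∀ x y, P x → P y → f x = f y → ∃ g ∈ Om Q, g * x * g⁻¹ = y

omit [FiniteDimensional (ZMod 3) V] in
theorem Bnd.mono {P P' : O Q → Prop} {k : ℕ} (h : Bnd P k) (e : ∀ x, P' x → P x) : Bnd P' k :=
  let ⟨f, h1, h2⟩ := h; ⟨f, fun x c => h1 x (e x c), fun x y c d => h2 x y (e x c) (e y d)⟩

omit [FiniteDimensional (ZMod 3) V] in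
theorem Bnd.or {P P' : O Q → Prop} {k l : ℕ} (h : Bnd P k) (h' : Bnd P' l) : Bnd (fun x => P x ∨ P' x) (k + l) := by
  classical
  obtain ⟨f, h1, h2⟩ := h
  obtain ⟨f', h1', h2'⟩ := h'
  refine ⟨fun x => if P x then f x else k + f' x, fun x hx => ?_, fun x y hx hy e => ?_⟩
  · dsimp only
    split_ifs with c
    exacts [(h1 x c).trans_le (Nat.le_add_right _ _), Nat.add_lt_add_left (h1' x (hx.resolve_left c)) _]
  · dsimp only at e
    split_ifs at e with c d d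
    · exact h2 x y c d e
    · have := h1 x c; omega
    · have := h1 y d; omega
    · exact h2' x y (hx.resolve_left c) (hy.resolve_left d) (by omega)

/-- determinant and spinor norm -/
noncomputable def ph (hQ : Nondeg Q) : O Q →* ℤˣ × ℤˣ := (dk hQ (good3 hQ)).prod (spin hQ (good3 hQ))

theorem ph_refl_one (hQ : Nondeg Q) {v : V} (hv : Q v = 1) : ph hQ (refl Q v) = (-1, 1) :=
  Prod.ext (dk_refl hQ _ (hv ▸ one_ne_zero)) (spin_refl_of_isSquare hQ _ (hv ▸ one_ne_zero) (hv ▸ IsSquare.one))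

theorem ph_refl_neg (hQ : Nondeg Q) {v : V} (hv : Q v = -1) : ph hQ (refl Q v) = (-1, -1) :=
  Prod.ext (dk_refl hQ _ (by rw [hv]; decide)) (spin_refl_of_not_isSquare hQ _ (by rw [hv]; decide) (by rw [hv]; decide))

theorem bnd (hQ : Nondeg Q) {A X : Matrix ι ι (ZMod 3)} {k : ℕ} (h : ∀ x : O Q, Ty A X x → ∃ κ : ℤˣ × ℤˣ → ℕ,
    (∀ s, κ s < k) ∧ ∀ s t, κ s = κ t → ∃ c, Commute c x ∧ t = s * ph hQ c) : Bnd (Q := Q) (Ty A X) k := by
  classical
  by_cases c : ∃ x : O Q, Ty A X x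
  swap
  · exact ⟨fun _ => 0, fun x hx => absurd ⟨x, hx⟩ c, fun x _ hx => absurd ⟨x, hx⟩ c⟩
  obtain ⟨z, hz⟩ := c
  obtain ⟨κ, h1, h2⟩ := h z hz
  choose! g hg using fun x (hx : Ty A X x) => hz.conj hQ hx
  refine ⟨fun x => κ (ph hQ (g x)), fun x _ => h1 _, fun x y hx hy e => ?_⟩
  obtain ⟨c, h3, h4⟩ := h2 _ _ e
  refine ⟨g y * (g x * c)⁻¹, ?_, ?_⟩
  · rw [Om_eq_ker hQ (good3 hQ)]
    show ph hQ _ = 1
    rw [map_mul, map_inv, map_mul, h4, mul_inv_cancel]
  · calc _ = g y * (g x * c)⁻¹ * (g x * z * (g x)⁻¹) * (g y * (g x * c)⁻¹)⁻¹ := by rw [hg x hx]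
      _ = g y * (c⁻¹ * z * c) * (g y)⁻¹ := by group
      _ = _ := by rw [h3.inv_left.eq, inv_mul_cancel_right, hg y hy]

theorem bnd4 (hQ : Nondeg Q) (A X : Matrix ι ι (ZMod 3)) : Bnd (Q := Q) (Ty A X) 4 :=
  bnd hQ fun x _ => ⟨fun s => (if s.1 = 1 then 0 else 1) + if s.2 = 1 then 0 else 2, by decide, fun s t e =>
    ⟨1, Commute.one_left _, by rw [map_one, mul_one]; revert s t; decide⟩⟩

theorem bnd2 (hQ : Nondeg Q) {A X : Matrix ι ι (ZMod 3)}
    (h : ∀ x : O Q, Ty A X x → ∃ c e, Commute c x ∧ ph hQ c = (-1, e)) : Bnd (Q := Q) (Ty A X) 2 :=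
  bnd hQ fun x hx => by
    obtain ⟨c, e, h1, h2⟩ := h x hx
    refine ⟨fun s => if (if s.1 = 1 then s.2 else s.2 * e) = 1 then 0 else 1, by clear h2; revert e; decide,
      fun s t k => ?_⟩
    rcases (by clear h2; revert e s t; decide : t = s ∨ t = s * (-1, e)) with k | k
    exacts [⟨1, Commute.one_left _, by rw [map_one, mul_one, k]⟩, ⟨c, h1, h2 ▸ k⟩]

theorem bnd1 (hQ : Nondeg Q) {A X : Matrix ι ι (ZMod 3)} (h : ∀ x : O Q, Ty A X x →
    (∃ c, Commute c x ∧ ph hQ c = (-1, 1)) ∧ ∃ c, Commute c x ∧ ph hQ c = (-1, -1)) : Bnd (Q := Q) (Ty A X) 1 :=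
  bnd hQ fun x hx => by
    obtain ⟨⟨c, h1, h2⟩, d, h3, h4⟩ := h x hx
    refine ⟨fun _ => 0, fun _ => one_pos, fun s t _ => ?_⟩
    rcases (by revert s t; decide : t = s ∨ t = s * (-1, 1) ∨ t = s * (-1, -1) ∨ t = s * ((-1, 1) * (-1, -1))) with
      k | k | k | k
    exacts [⟨1, Commute.one_left _, by rw [map_one, mul_one, k]⟩, ⟨c, h1, h2 ▸ k⟩, ⟨d, h3, h4 ▸ k⟩,
      ⟨c * d, h1.mul_left h3, by rw [map_mul, h2, h4, k]⟩]

theorem bnd_perp (hQ : Nondeg Q) {A X : Matrix ι ι (ZMod 3)} (hn : Fintype.card ι + 2 ≤ finrank (ZMod 3) V) :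
    Bnd (Q := Q) (Ty A X) 1 :=
  bnd1 hQ fun x ⟨hx, b, h, hu⟩ => by
    have nd : Nondeg (Q.comp (Perp Q b).subtype) := fun s hs => Subtype.ext (hQ s fun w => by
      obtain ⟨w', h1, h2⟩ := (h.good hx).nd w
      rw [← h2 s s.2]
      exact hs ⟨w', h1⟩)
    have k : ∀ c, ∃ v, Q v = c ∧ Commute (refl Q v) x := fun c => by
      obtain ⟨v, hv⟩ := nd.universal (by have := h.finrank_perp; omega) c
      exact ⟨v, hv, (mul_inv_eq_iff_eq_mul.1 ((refl_conj x v).trans (by rw [hu v v.2]))).symm⟩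
    obtain ⟨v, h1, h2⟩ := k 1
    obtain ⟨w, h3, h4⟩ := k (-1)
    exact ⟨⟨_, h2, ph_refl_one hQ h1⟩, _, h4, ph_refl_neg hQ h3⟩

theorem JV.exists_comm (hQ : Nondeg Q) (hx : x ^ 3 = 1) {c : ZMod 3} {v : V} (h : JV x c v) {s : ℤˣ × ℤˣ}
    (hs : ∀ w, Q w = c → ph hQ (refl Q w) = s) : ∃ g, Commute g x ∧ ph hQ g = s := by
  have cm : ∀ a b : V, polar Q a b = 0 → Commute (refl Q b) (refl Q a) := fun a b e =>
    mul_inv_eq_iff_eq_mul.1 ((refl_conj _ a).trans (by rw [refl_apply_of_orth e]))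
  refine ⟨refl Q v * refl Q (x.1 v) * refl Q (x.1 (x.1 v)), (mul_inv_eq_iff_eq_mul.1 ?_ : Commute x _).symm, ?_⟩
  · rw [← conj_mul, ← conj_mul, refl_conj, refl_conj, refl_conj, cube hx,
      ((cm _ _ h.hb).mul_left (cm _ _ (h.hb' hx))).eq, mul_assoc]
  · rw [map_mul, map_mul, hs _ h.hq, hs _ ((O.map_Q _ _).trans h.hq), hs _ ((O.map_Q _ _).trans ((O.map_Q _ _).trans h.hq))]
    clear hs; revert s; decide

omit [FiniteDimensional (ZMod 3) V] in
theorem Blk.jv {c : ZMod 3} {A X : Matrix ι ι (ZMod 3)} {b : ι → V} (h : Blk x A X b) (hc : c ≠ 0) {i j : ι}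
    (h1 : A i i = 2 * c) (h2 : A i j = 0) (h3 : ∀ k, X k i = if k = j then 1 else 0) : JV x c (b i) ∧ x.1 (b i) = b j := by
  have e : x.1 (b i) = b j := by simp [h.act, h3]
  exact ⟨⟨hc, mul_left_cancel₀ z3_two (by rw [← B_self, h.gram, h1]), by rw [e, h.gram, h2]⟩, e⟩

theorem bnd_JW (hQ : Nondeg Q) {c : ZMod 3} (hc : c = 1 ∨ c = -1) :
    Bnd (Q := Q) (Ty (fromBlocks (AJ c) 0 0 AW) (fromBlocks XJ 0 0 XW)) 2 :=
  bnd2 hQ fun x ⟨hx, b, h, _⟩ => by
    rcases hc with rfl | rfl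
    · obtain ⟨g, k⟩ := (h.jv (c := 1) (by decide) (i := .inl 0) (j := .inl 1) rfl rfl (by decide)).1.exists_comm hQ hx
        fun _ => ph_refl_one hQ
      exact ⟨g, _, k⟩
    · obtain ⟨g, k⟩ := (h.jv (c := -1) (by decide) (i := .inl 0) (j := .inl 1) rfl rfl (by decide)).1.exists_comm hQ hx
        fun _ => ph_refl_neg hQ
      exact ⟨g, _, k⟩

theorem bnd_JJ (hQ : Nondeg Q) {c : ZMod 3} (hc : c = 1 ∨ c = -1) :
    Bnd (Q := Q) (Ty (fromBlocks (AJ 1) 0 0 (AJ c)) (fromBlocks XJ 0 0 XJ)) 1 :=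
  bnd1 hQ fun x ⟨hx, b, h, _⟩ => by
    obtain ⟨h1, e1⟩ := h.jv (c := 1) (by decide) (i := .inl 0) (j := .inl 1) rfl rfl (by decide)
    obtain ⟨h2, e2⟩ := h.jv (c := c) (by rcases hc with rfl | rfl <;> decide) (i := .inr 0) (j := .inr 1) rfl rfl
      (by decide)
    refine ⟨h1.exists_comm hQ hx fun _ => ph_refl_one hQ, ?_⟩
    rcases hc with rfl | rfl
    · exact (h1.add h2 (by decide) (h.gram _ _) (e2 ▸ h.gram _ _) (e1 ▸ h.gram _ _)).exists_comm hQ hx
        fun _ => ph_refl_neg hQ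
    · exact h2.exists_comm hQ hx fun _ => ph_refl_neg hQ

theorem bnd8 (hQ : Nondeg Q) (hn : finrank (ZMod 3) V = 8) : Bnd (fun x : O Q => x ^ 3 = 1 ∧ x ≠ 1) 13 :=
  ((bnd_perp hQ (by simp [hn])).or ((bnd_perp hQ (by simp [hn])).or ((bnd_perp hQ (by simp [hn])).or
    ((bnd_JJ hQ (Or.inl rfl)).or ((bnd_JJ hQ (Or.inr rfl)).or (((bnd_JW hQ (Or.inl rfl)).or
      (bnd_JW hQ (Or.inr rfl))).or (bnd4 hQ _ _))))))).mono fun _ hx => cases hQ hn.le hx.1 hx.2

theorem bnd7 (hQ : Nondeg Q) (hn : finrank (ZMod 3) V = 7) : Bnd (fun x : O Q => x ^ 3 = 1 ∧ x ≠ 1) 7 := by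
  have k : Bnd (fun x : O Q => Ty (fromBlocks (AJ 1) 0 0 AW) (fromBlocks XJ 0 0 XW) x ∨
      Ty (fromBlocks (AJ (-1)) 0 0 AW) (fromBlocks XJ 0 0 XW) x) 2 := by
    by_cases c : ∃ x : O Q, Ty (fromBlocks (AJ 1) 0 0 AW) (fromBlocks XJ 0 0 XW) x
    · refine (bnd_JW hQ (Or.inl rfl)).mono fun y hy => hy.resolve_right ?_
      obtain ⟨x, -, b, h, -⟩ := c
      rintro ⟨-, b', h', -⟩
      obtain ⟨t, ht, e⟩ := H66.gramDet_eq Q (basisOfLinearIndependentOfCardEqFinrank h.li (by simp [hn]))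
        (basisOfLinearIndependentOfCardEqFinrank h'.li (by simp [hn]))
      simp only [H66.gramDet, coe_basisOfLinearIndependentOfCardEqFinrank, h.gram, h'.gram, z3_sq t ht, one_mul] at e
      have e' : (fromBlocks (AJ (-1)) 0 0 AW).det = (fromBlocks (AJ 1) 0 0 AW).det := e
      rw [det_fromBlocks_zero₁₂, det_fromBlocks_zero₁₂, det_AJ, det_AJ, det_AW] at e'
      exact absurd e' (by decide)
    · exact (bnd_JW hQ (Or.inr rfl)).mono fun y hy => hy.resolve_left fun d => c ⟨y, d⟩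
  refine ((bnd_perp hQ (by simp [hn])).or ((bnd_perp hQ (by simp [hn])).or ((bnd_perp hQ (by simp [hn])).or
    ((bnd_JJ hQ (Or.inl rfl)).or ((bnd_JJ hQ (Or.inr rfl)).or k))))).mono fun x hx =>
      (cases hQ (by omega) hx.1 hx.2).imp_right (Or.imp_right (Or.imp_right (Or.imp_right (Or.imp_right
        fun c => c.resolve_right ?_))))
  rintro ⟨-, b, h, -⟩
  have := h.card_le
  simp [hn] at this

end H94.U3

namespace H94

open H12 Module Subgroup Cfsg

/-- at most `k` classes of elements of order three -/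
def ClsLe (P : Type*) [Group P] (k : ℕ) : Prop :=
  ∃ f : P → ℕ, (∀ x, orderOf x = 3 → f x < k) ∧ ∀ x y, orderOf x = 3 → orderOf y = 3 → f x = f y → IsConj x y

theorem ClsLe.congr {P P' : Type*} [Group P] [Group P'] {k : ℕ} (h : ClsLe P k) (e : P' ≃* P) : ClsLe P' k :=
  let ⟨f, h1, h2⟩ := h
  ⟨f ∘ e, fun x hx => h1 _ ((e.orderOf_eq x).trans hx), fun x y hx hy c => by
    simpa using e.symm.toMonoidHom.map_isConj (h2 _ _ ((e.orderOf_eq x).trans hx) ((e.orderOf_eq y).trans hy) c)⟩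

theorem ClsLe.complete {P : Type*} [Group P] {k : ℕ} (h : ClsLe P k) (z : Fin k → P) (hz : ∀ i, orderOf (z i) = 3)
    (hi : ∀ i j, IsConj (z i) (z j) → i = j) {x : P} (hx : orderOf x = 3) : ∃ i, IsConj x (z i) := by
  obtain ⟨f, h1, h2⟩ := h
  obtain ⟨i, e⟩ := Finite.surjective_of_injective (f := fun i => (⟨f (z i), h1 _ (hz i)⟩ : Fin k))
    (fun i j e => hi i j (h2 _ _ (hz i) (hz j) (congrArg Fin.val e))) ⟨f x, h1 x hx⟩
  exact ⟨i, h2 _ _ hx (hz i) (congrArg Fin.val e).symm⟩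

theorem U3.Bnd.clsLe {V : Type*} [AddCommGroup V] [Module (ZMod 3) V] [FiniteDimensional (ZMod 3) V]
    {Q : QuadraticForm (ZMod 3) V} (hQ : Nondeg Q) (hn : 3 ≤ finrank (ZMod 3) V) {k : ℕ}
    (h : U3.Bnd (fun x : O Q => x ^ 3 = 1 ∧ x ≠ 1) k) : ClsLe (Om Q ⧸ center (Om Q)) k := by
  obtain ⟨f, h1, h2⟩ := h
  obtain ⟨e, e', he⟩ := hQ.exists_hyp_of_three_le hn
  have : ∀ x : Om Q ⧸ center (Om Q), orderOf x = 3 → ∃ y : Om Q, (y.1 ^ 3 = 1 ∧ y.1 ≠ 1) ∧ QuotientGroup.mk y = x := by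
    intro x hx
    obtain ⟨y, rfl⟩ := QuotientGroup.mk_surjective x
    have c : (QuotientGroup.mk (y ^ 3) : Om Q ⧸ center (Om Q)) = 1 := by
      rw [QuotientGroup.mk_pow]
      exact orderOf_dvd_iff_pow_eq_one.1 hx.dvd
    have e4 : (QuotientGroup.mk (y ^ 4) : Om Q ⧸ center (Om Q)) = QuotientGroup.mk y := by
      rw [pow_succ, QuotientGroup.mk_mul, c, one_mul]
    refine ⟨y ^ 4, ⟨?_, fun e => ?_⟩, e4⟩
    · rw [coe_pow, ← pow_mul, show 4 * 3 = 3 * (2 * 2) from rfl, pow_mul, pow_mul, ← coe_pow]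
      rcases (he.mem_center_Om_iff hQ (good3 hQ) (by omega) _).1 ((QuotientGroup.eq_one_iff _).1 c) with e | e <;> rw [e]
      · simp
      · rw [show negO Q ^ 2 = 1 from O.ext fun v => by simp [pow_two, O.mul_apply, negO_apply, O.one_apply], one_pow]
    · rw [← e4, show y ^ 4 = 1 from Subtype.ext e, QuotientGroup.mk_one, orderOf_one] at hx
      exact absurd hx (by norm_num)
  choose! l hl using this
  refine ⟨fun x => f (l x), fun x hx => h1 _ (hl x hx).1, fun x y hx hy e => ?_⟩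
  obtain ⟨g, hg, e'⟩ := h2 _ _ (hl x hx).1 (hl y hy).1 e
  rw [← (hl x hx).2, ← (hl y hy).2]
  exact (QuotientGroup.mk' _).map_isConj (isConj_iff.2 ⟨⟨g, hg⟩, Subtype.ext e'⟩)

theorem clsLe_O7 : ClsLe (POmega (ZMod 3) (quadFormOdd 3 (ZMod 3))) 7 :=
  ((U3.bnd7 (nondeg_QOdd z3_two 3) (finrank_odd 3)).clsLe (nondeg_QOdd z3_two 3) (by rw [finrank_odd]; norm_num)).congr
    (pcommCongr (oddIso _ 3))

theorem clsLe_O8 : ClsLe (POmega (ZMod 3) (quadFormPlus 4 (ZMod 3))) 13 :=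
  ((U3.bnd8 (nondeg_QPlus 4) (finrank_plus 4)).clsLe (nondeg_QPlus 4) (by rw [finrank_plus]; norm_num)).congr
    (pcommCongr (plusIso _ 4))

end H94
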