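import Mathlib
import Cfsg.Agent.Lib.Refl3.ClsData
import Cfsg.Agent.Lib.Refl3.Unip

/-!
Classes of subgroups of order three in `Ω₇(3)`, `PΩ₈⁺(3)` and `PΩ₈⁺(3):S₃` (helper94).
-/

set_option autoImplicit false

namespace H94

open Subgroup Cfsg H54 H56 H7 H94.O8 Equiv
open H94.T24 hiding cl

variable {G : Type*} [Group G]

/-- representatives of the classes of subgroups of order three of `L` -/
def ECls {P : Type*} [Group P] (L : Subgroup P) (k : ℕ) : Prop :=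
  ∃ z : Fin k → P, (∀ i, z i ∈ L ∧ orderOf (z i) = 3) ∧
    (∀ i j g, zpowers (g * z i * g⁻¹) = zpowers (z j) → i = j) ∧ ∀ x ∈ L, orderOf x = 3 → ∃ i, IsConj x (z i)

theorem ECls.map {P P' : Type*} [Group P] [Group P'] {L : Subgroup P} {k : ℕ} (h : ECls L k) (e : P ≃* P') :
    ECls (L.map e.toMonoidHom) k := by
  obtain ⟨z, h1, h2, h3⟩ := h
  refine ⟨e ∘ z, fun i => ⟨mem_map_of_mem _ (h1 i).1, (e.orderOf_eq _).trans (h1 i).2⟩, fun i j g c => ?_, ?_⟩
  · obtain ⟨g, rfl⟩ := e.surjective g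
    refine h2 i j g (map_injective (f := e.toMonoidHom) e.injective ?_)
    simpa using c
  · rintro _ ⟨x, hx, rfl⟩ c
    exact (h3 x hx ((e.orderOf_eq x).symm.trans c)).imp fun i c => e.toMonoidHom.map_isConj c

theorem ECls.map_top {P P' : Type*} [Group P] [Group P'] {k : ℕ} (h : ECls (⊤ : Subgroup P) k) (e : P ≃* P') :
    ECls (⊤ : Subgroup P') k := map_top_of_surjective e.toMonoidHom e.surjective ▸ h.map e

theorem ECls.cls {P : Type*} [Group P] {L : Subgroup P} {k : ℕ} (h : ECls L k) :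
    ∃ Y : Fin k → Subgroup P, (∀ i, Y i ≤ L ∧ Nat.card (Y i) = 3) ∧
      (∀ i j, (∃ g : P, (Y i).map (MulAut.conj g).toMonoidHom = Y j) → i = j) ∧
      ∀ X : Subgroup P, X ≤ L → Nat.card X = 3 → ∃ i, ∃ g : P, X.map (MulAut.conj g).toMonoidHom = Y i := by
  obtain ⟨z, h1, h2, h3⟩ := h
  refine ⟨fun i => zpowers (z i), fun i => ⟨zpowers_le.2 (h1 i).1, (Nat.card_zpowers _).trans (h1 i).2⟩,
    fun i j ⟨g, e⟩ => h2 i j g ((MonoidHom.map_zpowers _ _).symm.trans e), fun X hX c => ?_⟩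
  have : Fact (Nat.Prime 3) := ⟨by norm_num⟩
  obtain ⟨x, rfl⟩ := (Subgroup.isCyclic_iff_exists_zpowers_eq_top X).1 (isCyclic_of_prime_card c)
  obtain ⟨i, e⟩ := h3 x (hX (mem_zpowers x)) ((Nat.card_zpowers x).symm.trans c)
  obtain ⟨g, e⟩ := isConj_iff.1 e
  exact ⟨i, g, (MonoidHom.map_zpowers _ _).trans (congrArg _ e)⟩

theorem ecls_of_inv {H L : Subgroup G} {k : ℕ} {α : Type*} (z : Fin k → G) (hz : ∀ i, z i ∈ H ∧ z i ∈ L ∧ orderOf (z i) = 3)
    (I : G → α) (h1 : ∀ g ∈ H, ∀ x, I (g * x * g⁻¹) = I x) (h2 : ∀ x y, zpowers x = zpowers y → I x = I y)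
    (h3 : ∀ i j, I (z i) = I (z j) → i = j)
    (h4 : ∀ x ∈ H, x ∈ L → orderOf x = 3 → ∃ i, ∃ g ∈ H, g * x * g⁻¹ = z i) : ECls (L.subgroupOf H) k := by
  refine ⟨fun i => ⟨z i, (hz i).1⟩, fun i => ⟨(hz i).2.1, (orderOf_mk _ _).trans (hz i).2.2⟩,
    fun i j g e => h3 i j ((h1 g g.2 _).symm.trans (h2 _ _ ?_)), fun x hx c => ?_⟩
  · simpa using congrArg (Subgroup.map H.subtype) e
  · obtain ⟨i, g, hg, e⟩ := h4 x x.2 hx ((orderOf_coe x).trans c)
    exact ⟨i, isConj_iff.2 ⟨⟨g, hg⟩, Subtype.ext e⟩⟩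

theorem ClsLe.complete' {H : Subgroup G} {k : ℕ} (h : ClsLe H k) {α : Type*} (z : Fin k → G)
    (hz : ∀ i, z i ∈ H ∧ orderOf (z i) = 3) (I : G → α) (h1 : ∀ g ∈ H, ∀ x, I (g * x * g⁻¹) = I x)
    (h3 : ∀ i j, I (z i) = I (z j) → i = j) {x : G} (hx : x ∈ H) (c : orderOf x = 3) :
    ∃ i, ∃ g ∈ H, g * x * g⁻¹ = z i := by
  obtain ⟨i, e⟩ := h.complete (fun i => ⟨z i, (hz i).1⟩) (fun i => (orderOf_mk _ _).trans (hz i).2) (fun i j e => by
    obtain ⟨g, e⟩ := isConj_iff.1 e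
    exact h3 i j ((h1 g g.2 _).symm.trans (congrArg (fun t : H => I t) e))) (x := ⟨x, hx⟩) ((orderOf_mk _ _).trans c)
  obtain ⟨g, e⟩ := isConj_iff.1 e
  exact ⟨i, g, g.2, congrArg Subtype.val e⟩

/-- the three transpositions -/
def tau3 : Fin 3 → Perm (Fin 3) := ![swap 0 1, swap 1 2, swap 0 2]

/-- the image in the symmetric group -/
structure Ps (S : Set G) (y : G) (p : G → Perm (Fin 3)) : Prop where
  mul : ∀ a ∈ closure (insert y S), ∀ b ∈ closure (insert y S), p (a * b) = p a * p b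
  inv : ∀ a ∈ closure (insert y S), p a⁻¹ = (p a)⁻¹
  ev : ∀ a ∈ Ev S, p a = 1
  s : ∀ a ∈ S, p a = swap 0 1
  y : p y = swap 1 2

theorem Ps.conj {S : Set G} {y : G} {p : G → Perm (Fin 3)} (h : Ps S y p) {a b : G} (ha : a ∈ closure (insert y S))
    (hb : b ∈ closure (insert y S)) : p (a * b * a⁻¹) = p a * p b * (p a)⁻¹ := by
  rw [h.mul _ (mul_mem ha hb) _ (inv_mem ha), h.mul _ ha _ hb, h.inv _ ha]

/-- the numbers of transpositions of the three classes that commute with `x` -/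
noncomputable def cnt3 (S : Set G) (y : G) (p : G → Perm (Fin 3)) (x : G) (k : Fin 3) : ℕ :=
  {d | d ∈ sig S y ∧ p d = tau3 k ∧ Commute x d}.ncard

theorem cnt3_congr {S : Set G} {y : G} {p : G → Perm (Fin 3)} {x x' : G} (e : zpowers x = zpowers x') :
    cnt3 S y p x = cnt3 S y p x' := by
  have k : ∀ {x x' d : G}, zpowers x = zpowers x' → Commute x d → Commute x' d := fun {x x' d} e c => by
    obtain ⟨n, rfl⟩ := e.ge (mem_zpowers x')
    exact c.zpow_left n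
  funext i
  exact congrArg Set.ncard (Set.ext fun d => and_congr_right' (and_congr_right' ⟨k e, k e.symm⟩))

namespace Tri

variable {E S : Set G} {t y : G} (h : Tri E S t y)
include h

theorem exists_ps : ∃ p, Ps S y p := by
  classical
  obtain ⟨ψ, -, h2, h3, h4⟩ := h.exists_psi
  refine ⟨fun g => if c : g ∈ closure (insert y S) then ψ ⟨g, c⟩ else 1, fun a ha b hb => ?_, fun a ha => ?_,
    fun a ha => ?_, fun a ha => ?_, ?_⟩
  · rw [dif_pos ha, dif_pos hb, dif_pos (mul_mem ha hb), ← map_mul]; rfl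
  · rw [dif_pos ha, dif_pos (inv_mem ha), ← map_inv]; rfl
  · exact (dif_pos (le_Lam (Ev_le S ha))).trans (h2.ge ha)
  · exact (dif_pos (mem_Lam ha)).trans (h3 a ha)
  · exact (dif_pos y_mem).trans h4

theorem cnt3_conj {p : G → Perm (Fin 3)} (hp : Ps S y p) {g : G} (hg : g ∈ closure (insert y S)) (x : G) {k l : Fin 3}
    (e : p g * tau3 k * (p g)⁻¹ = tau3 l) : cnt3 S y p (g * x * g⁻¹) l = cnt3 S y p x k := by
  have m : ∀ d ∈ sig S y, d ∈ closure (insert y S) := fun d hd => closure_sig.le (subset_closure hd)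
  rw [cnt3, cnt3, ← Set.ncard_image_of_injective {d | d ∈ sig S y ∧ p d = tau3 k ∧ Commute x d}
    (MulAut.conj g).injective]
  congr 1
  ext d
  obtain ⟨d, rfl⟩ := (MulAut.conj g).surjective d
  rw [(MulAut.conj g).injective.mem_set_image]
  have c : g * d * g⁻¹ ∈ sig S y ↔ d ∈ sig S y :=
    ⟨fun c => by simpa [mul_assoc] using h.conj_sig (inv_mem hg) _ c, h.conj_sig hg d⟩
  refine (and_congr_left' c).trans (and_congr_right fun hd => and_congr ?_ (H56.commute_conj_iff g x d))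
  rw [MulAut.conj_apply, hp.conj hg (m d hd), ← e, mul_left_inj, mul_right_inj]

theorem cnt3_ev {p : G → Perm (Fin 3)} (hp : Ps S y p) (g : G) (hg : g ∈ Ev S) (x : G) :
    cnt3 S y p (g * x * g⁻¹) = cnt3 S y p x :=
  funext fun k => h.cnt3_conj hp (le_Lam (Ev_le S hg)) x (by simp [hp.ev g hg])

theorem cnt3_sq {p : G → Perm (Fin 3)} (hp : Ps S y p) (g : G) (hg : g ∈ closure (insert y S)) (x : G) :
    ∑ k, cnt3 S y p (g * x * g⁻¹) k ^ 2 = ∑ k, cnt3 S y p x k ^ 2 := by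
  obtain ⟨π, e⟩ := (by decide +kernel : ∀ σ : Perm (Fin 3), ∃ π : Perm (Fin 3), ∀ k, σ * tau3 k * σ⁻¹ = tau3 (π k)) (p g)
  rw [← Equiv.sum_comp π]
  exact Finset.sum_congr rfl fun k _ => by rw [h.cnt3_conj hp hg x (e k)]

/-- seven suitable elements give all the classes -/
theorem ecls {p : G → Perm (Fin 3)} (hp : Ps S y p) (b : Fin 7 → G)
    (hb : ∀ i, b i ∈ Ev S ∧ Commute (b i) t ∧ orderOf (b i) = 3) (hc : ∀ i k, cnt3 S y p (b i) k = tri i k) :
    ECls (⊤ : Subgroup O7p3) 7 ∧ ECls (⊤ : Subgroup O8p3) 13 ∧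
      ECls ((Ev S).subgroupOf (closure (insert y S))) 7 := by
  have sq : ∀ i j, ∑ k, cnt3 S y p (b i) k ^ 2 = ∑ k, cnt3 S y p (b j) k ^ 2 → i = j := fun i j e => by
    simp only [hc] at e
    revert i j; decide +kernel
  have sq' : ∀ x x' : G, zpowers x = zpowers x' → ∑ k, cnt3 S y p x k ^ 2 = ∑ k, cnt3 S y p x' k ^ 2 :=
    fun x x' e => by rw [cnt3_congr e]
  obtain ⟨e7⟩ := h.cent_t_Ev
  obtain ⟨e8⟩ := h.plus.1
  let r : Fin 13 → Fin 7 := ![0, 1, 2, 3, 4, 5, 6, 0, 1, 2, 0, 1, 2]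
  let g : Fin 13 → G := ![1, 1, 1, 1, 1, 1, 1, y, y, y, t * y, t * y, t * y]
  let σ : Fin 13 → Perm (Fin 3) := ![1, 1, 1, 1, 1, 1, 1, swap 1 2, swap 1 2, swap 1 2, swap 0 1 * swap 1 2,
    swap 0 1 * swap 1 2, swap 0 1 * swap 1 2]
  let π : Fin 13 → Fin 3 → Fin 3 := ![id, id, id, id, id, id, id, ![2, 1, 0], ![2, 1, 0], ![2, 1, 0], ![2, 0, 1],
    ![2, 0, 1], ![2, 0, 1]]
  have hg : ∀ j, g j ∈ closure (insert y S) ∧ p (g j) = σ j := by
    have a1 : (1 : G) ∈ closure (insert y S) ∧ p 1 = 1 := ⟨one_mem _, hp.ev 1 (one_mem _)⟩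
    have a2 : y ∈ closure (insert y S) ∧ p y = swap 1 2 := ⟨y_mem, hp.y⟩
    have a3 : t * y ∈ closure (insert y S) ∧ p (t * y) = swap 0 1 * swap 1 2 :=
      ⟨mul_mem (mem_Lam h.ht) y_mem, by rw [hp.mul _ (mem_Lam h.ht) _ y_mem, hp.s t h.ht, hp.y]⟩
    intro j; fin_cases j <;> assumption
  have hz : ∀ j, g j * b (r j) * (g j)⁻¹ ∈ Ev S ∧ orderOf (g j * b (r j) * (g j)⁻¹) = 3 := fun j =>
    ⟨h.conj_Ev (hg j).1 (hb _).1, ((MulAut.conj (g j)).orderOf_eq _).trans (hb _).2.2⟩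
  have inj : ∀ i j, cnt3 S y p (g i * b (r i) * (g i)⁻¹) = cnt3 S y p (g j * b (r j) * (g j)⁻¹) → i = j := by
    have : ∀ j k, cnt3 S y p (g j * b (r j) * (g j)⁻¹) k = tri (r j) (π j k) := fun j k => by
      rw [← hc, h.cnt3_conj hp (hg j).1 _ (k := π j k)]
      rw [(hg j).2]
      revert j k; decide +kernel
    intro i j e
    have e' : ∀ k, tri (r i) (π i k) = tri (r j) (π j k) := fun k => by rw [← this, ← this, e]
    clear e
    revert i j; decide +kernel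
  have c8 := fun x => (clsLe_O8.congr e8).complete' _ hz _ (h.cnt3_ev hp) inj (x := x)
  have m7 : ∀ i, b i ∈ Ev S ⊓ centralizer {t} := fun i => ⟨(hb i).1, mem_centralizer_singleton_iff.2 (hb i).2.1⟩
  have q7 := fun g (hg : g ∈ Ev S ⊓ centralizer {t}) => h.cnt3_sq hp g (le_Lam (Ev_le S hg.1))
  have c7 := fun x => (clsLe_O7.congr e7).complete' b (fun i => ⟨m7 i, (hb i).2.2⟩)
    (fun x => ∑ k, cnt3 S y p x k ^ 2) q7 sq (x := x)
  have a7 := ecls_of_inv (L := ⊤) b (fun i => ⟨m7 i, trivial, (hb i).2.2⟩) (fun x => ∑ k, cnt3 S y p x k ^ 2) q7 sq' sq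
    fun x hx _ => c7 x hx
  have a8 := ecls_of_inv (L := ⊤) _ (fun i => ⟨(hz i).1, trivial, (hz i).2⟩) _ (h.cnt3_ev hp)
    (fun _ _ => cnt3_congr) inj fun x hx _ => c8 x hx
  rw [top_subgroupOf] at a7 a8
  refine ⟨a7.map_top e7, a8.map_top e8, ecls_of_inv b (fun i => ⟨le_Lam (Ev_le S (hb i).1), (hb i).1, (hb i).2.2⟩)
    (fun x => ∑ k, cnt3 S y p x k ^ 2) (h.cnt3_sq hp) sq' sq
      fun x _ hx c => ?_⟩
  obtain ⟨j, n, hn, e⟩ := c8 x hx c
  exact ⟨r j, (g j)⁻¹ * n, mul_mem (inv_mem (hg j).1) (le_Lam (Ev_le S hn)), by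
    rw [mul_inv_rev, inv_inv, mul_assoc _ n, mul_assoc, ← mul_assoc (n * x), e]; group⟩

end Tri

section Lab

variable {E : Set G} (L : Lab23 E) {p : G → Perm (Fin 3)} (hp : Ps (setC L) (L.x 26337) p)

theorem cl_spec {m : ℕ} (hm : m < 31671) : (cl m = 0 ↔ Nat.land (rc m) 3 = 0) ∧
    (cl m = 1 ∨ cl m = 2 → Nat.land (rc m) 3 = 1 ∧ ∀ k < 9, cl (tab23 (k + 1) m) + cl m = 3 ∧ 0 < cl (tab23 (k + 1) m)) := by
  have := (allLt_iff _ _).1 par_ok m hm
  simp only [force_eq, band_eq_true, bimp_eq_true, bor_eq_true, allLt_iff, Nat.beq_eq, Bool.and_eq_true,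
    Nat.blt_eq] at this
  exact ⟨⟨this.1, fun e => by rw [cl, force_eq, force_eq, e]; rfl⟩, this.2⟩

include hp in
theorem sig_iff {m : ℕ} (hm : m < 31671) (k : Fin 3) :
    L.x m ∈ sig (setC L) (L.x 26337) ∧ p (L.x m) = tau3 k ↔ cl m = k := by
  have key : ∀ d ∈ sig (setC L) (L.x 26337), ∃ m < 31671, L.x m = d ∧ ∃ j : Fin 3, cl m = j ∧ p d = tau3 j := by
    rintro d (hd | ⟨g, hg, rfl⟩)
    · obtain ⟨m, hm, rfl⟩ := L.exists_x ((locC L).2.2 hd)
      exact ⟨m, hm, rfl, 0, (cl_spec hm).1.2 ((mem_setC L hm).1 hd), hp.s _ hd⟩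
    · have st : ∀ a ∈ {y | ∃ k < 9, L.s (k + 1) = y}, ∀ g ∈ closure {y | ∃ k < 9, L.s (k + 1) = y},
          (∃ m < 31671, L.x m = g * L.x 26337 * g⁻¹ ∧ ∃ j : Fin 3, j ≠ 0 ∧ cl m = j ∧ p (L.x m) = tau3 j) →
          ∃ m < 31671, L.x m = a * g * L.x 26337 * (a * g)⁻¹ ∧ ∃ j : Fin 3, j ≠ 0 ∧ cl m = j ∧ p (L.x m) = tau3 j := by
        rintro _ ⟨k, hk, rfl⟩ g hg ⟨m, hm, e, j, h0, h1, h2⟩
        have hs := s_mem_setC L (k := k + 1) (by omega) (by omega)
        have e' : L.x (tab23 (k + 1) m) = L.s (k + 1) * L.x m * (L.s (k + 1))⁻¹ := by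
          rw [L.q.inv (L.s_mem (by omega)), L.conj_s (by omega) hm]
        have m1 : L.x m ∈ closure (insert (L.x 26337) (setC L)) :=
          have := Tri.le_Lam (y := L.x 26337) ((locC L).2.1.ge hg)
          e ▸ mul_mem (mul_mem this Tri.y_mem) (inv_mem this)
        obtain ⟨c1, c2⟩ := ((cl_spec hm).2 (by omega)).2 k hk
        refine ⟨_, L.T_lt (k := k + 1) (by omega) hm, by rw [e', e]; group, swap 1 2 j, by clear h1 h2; revert j; decide, ?_, ?_⟩
        · have : (swap 1 2 j : Fin 3) + j.1 = 3 := by clear h1 h2; revert j; decide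
          omega
        · rw [e', hp.conj (Tri.mem_Lam hs) m1, hp.s _ hs, h2]
          clear h1 h2; revert j; decide
      have : ∃ m < 31671, L.x m = g * L.x 26337 * g⁻¹ ∧ ∃ j : Fin 3, j ≠ 0 ∧ cl m = j ∧ p (L.x m) = tau3 j := by
        rw [(locC L).2.1] at hg
        induction hg using closure_induction_left with
        | one => exact ⟨26337, by norm_num, by simp, 1, by decide, by decide +kernel, hp.y⟩
        | mul_left a ha g hg ih => exact st a ha g hg ih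
        | inv_mul_cancel a ha g hg ih =>
          rw [L.q.inv (by obtain ⟨k, hk, rfl⟩ := ha; exact L.s_mem (by omega))]
          exact st a ha g hg ih
      obtain ⟨m, hm, e, j, -, h1, h2⟩ := this
      exact ⟨m, hm, e, j, h1, e ▸ h2⟩
  have key' : L.x m ∈ sig (setC L) (L.x 26337) → ∃ j : Fin 3, cl m = j ∧ p (L.x m) = tau3 j := fun c => by
    obtain ⟨m', hm', e, c⟩ := key _ c
    rwa [L.inj _ _ hm' hm e] at c
  constructor
  · rintro ⟨h1, h2⟩
    obtain ⟨j, h3, h4⟩ := key' h1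
    rw [h3, (by decide : ∀ j k, tau3 j = tau3 k → j = k) j k (h4.symm.trans h2)]
  · intro e
    have c : L.x m ∈ sig (setC L) (L.x 26337) := mem_sigC L hm (by
      by_cases c : cl m = 0
      · rw [(cl_spec hm).1.1 c]; norm_num
      · rw [((cl_spec hm).2 (by omega)).1]; norm_num)
    obtain ⟨j, h3, h4⟩ := key' c
    exact ⟨c, Fin.ext (h3.symm.trans e) ▸ h4⟩

end Lab

end H94

namespace H7.Model23

open Subgroup Cfsg H54 H56 H94 H94.O8
open H94.T24 hiding cl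

theorem ecls {G : Type*} [Group G] {D : Set G} (M : Model23 G D) :
    ECls (⊤ : Subgroup O7p3) 7 ∧ ECls (⊤ : Subgroup O8p3) 13 ∧
      ECls ((Ev (setC M.lab)).subgroupOf (closure (insert (M.lab.x 26337) (setC M.lab)))) 7 := by
  have h := M.tri
  obtain ⟨p, hp⟩ := h.exists_ps
  have lt : ∀ {w}, inW 1022 w = true → ∀ k ∈ w, k < 10 := fun c k hk => (tb1022.1 (inW_iff.1 c k hk)).2
  have ms : ∀ {w}, inW 1022 w = true → ∀ k ∈ w, M.lab.s k ∈ setC M.lab := fun c k hk =>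
    s_mem_setC M.lab (tb1022.1 (inW_iff.1 c k hk)).1 (lt c k hk)
  have : Fact (Nat.Prime 3) := ⟨by norm_num⟩
  refine h.ecls hp (fun i => M.lab.wd (wu i) * M.lab.wd (wb i) * (M.lab.wd (wu i))⁻¹) (fun i => ?_) fun i k => ?_
  all_goals obtain ⟨w1, w2, w3, w4, w5, w6⟩ := wb_ok i i.2
  · refine ⟨h.conj_Ev (M.lab.wd_mem fun k hk => Tri.mem_Lam (ms w3 k hk)) (prod_mem_Ev _ (fun x hx => ?_)
      (by rwa [List.length_map])), ?_, ((MulAut.conj _).orderOf_eq _).trans (orderOf_eq_prime ?_ fun e => w5 ?_)⟩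
    · obtain ⟨j, hj, rfl⟩ := List.mem_map.1 hx
      exact ms w1 j hj
    · have := M.lab.conj_wd (w := wu i ++ (wb i ++ (wu i).reverse)) (fun k hk => by
        simp only [List.mem_append, List.mem_reverse] at hk
        rcases hk with hk | hk | hk
        exacts [lt w3 k hk, lt w1 k hk, lt w3 k hk]) (M.lab.idx_lt 1 (by norm_num))
      rw [w6, mul_inv_eq_iff_eq_mul, Lab.wd_append, Lab.wd_append, M.lab.wd_reverse (lt w3), ← mul_assoc] at this
      exact this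
    · have := wd_eq_one M.lab M.gen M.center w4
      rwa [Lab.wd_append, Lab.wd_append, ← pow_three] at this
    · have := M.lab.conj_wd (lt w1) (M.lab.idx_lt 3 (by norm_num))
      rw [e, one_mul, inv_one, mul_one] at this
      exact (M.lab.inj _ _ (M.lab.idx_lt 3 (by norm_num)) (M.lab.evW_lt (lt w1) (M.lab.idx_lt 3 (by norm_num))) this).symm
  · have c : ∀ k : Fin 3, cnt3 _ _ p (M.lab.wd (wb i)) k = O8.tri i k := fun k => by
      rw [← tri_ok i i.2 k k.2, ← M.lab.ncard_filter (P := fun d => d ∈ sig (setC M.lab) (M.lab.x 26337) ∧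
        p d = tau3 k ∧ Commute (M.lab.wd (wb i)) d) fun m hm => by
          rw [← and_assoc, sig_iff M.lab hp hm, band_eq_true, Nat.beq_eq, Nat.beq_eq,
            ← M.lab.x_eq_iff (M.lab.evW_lt (lt w1) hm) hm, ← M.lab.conj_wd (lt w1) hm, mul_inv_eq_iff_eq_mul]
          rfl]
      exact congrArg Set.ncard (Set.ext fun d => ⟨fun c => ⟨h.sig_sub c.1, c⟩, fun c => c.2⟩)
    have m : M.lab.wd (wu i) ∈ closure (setC M.lab) := M.lab.wd_mem fun k hk => subset_closure (ms w3 k hk)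
    rcases h.cases m with e | e
    · rw [h.cnt3_ev hp _ e, c]
    · have e' := hp.ev _ e
      rw [hp.mul _ (Tri.le_Lam m) _ (Tri.mem_Lam h.ht), hp.s _ h.ht, mul_eq_one_iff_eq_inv] at e'
      rw [h.cnt3_conj hp (Tri.le_Lam m) _ (k := Equiv.swap 1 2 k) (by rw [e']; revert k; decide), c]
      exact (by decide +kernel : ∀ i : Fin 7, ∀ k : Fin 3, O8.tri i (Equiv.swap 1 2 k : Fin 3) = O8.tri i k) i k

end H7.Model23
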